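import Mathlib
import Cfsg.Prelude.Def_GeometricClasses
import Cfsg.Agent.Lib.Two.SL

/-! Quaternion subgroups of GL₂ in odd characteristic and their normalizers. -/

namespace Cfsg.Agent.Lib.Two.QN

open Matrix
open scoped Matrix MatrixGroups
open Cfsg.Agent.Lib.Two

variable {F : Type*} [Field F]

local notation "M2" => Matrix (Fin 2) (Fin 2) F

theorem cayley (A : M2) : A * A = A.trace • A - A.det • (1 : M2) := by
  ext i j; fin_cases i <;> fin_cases j <;> simp [Matrix.mul_apply, det_fin_two, trace_fin_two] <;> ring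

/-- trace and determinant from a quadratic relation of a non-scalar matrix -/
theorem inv_of_sq {A : M2} (hA : ¬ IsScalar2 A) {t d : F} (h : A * A = t • A - d • (1 : M2)) :
    A.trace = t ∧ A.det = d := by
  rw [cayley A] at h
  have := combo_inj A hA (-A.det) A.trace (-d) t (by rw [neg_smul, neg_smul, neg_add_eq_sub, neg_add_eq_sub]; exact h)
  exact ⟨this.2, neg_inj.1 this.1⟩

/-- the relations of a pair of standard quaternion generators -/
structure QPair (I J : M2) : Prop where
  ii : I * I = -1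
  jj : J * J = -1
  ji : J * I = -(I * J)

theorem QPair.notScalar {I J : M2} (q : QPair I J) (h2 : (2 : F) ≠ 0) : ¬ IsScalar2 I := by
  intro h
  obtain ⟨c, rfl⟩ := (isScalar2_iff I).1 h
  have h1 := q.ji
  have hii := q.ii
  simp at h1 hii
  have : (2 * c) • J = 0 := by rw [two_mul, add_smul]; exact eq_neg_iff_add_eq_zero.1 h1
  rcases smul_eq_zero.1 this with h' | h'
  · rcases mul_eq_zero.1 h' with h'' | h''
    · exact h2 h''
    · simp [h''] at hii
  · have := q.jj
    simp [h'] at this

theorem QPair.center {I J : M2} (q : QPair I J) (h2 : (2 : F) ≠ 0) (g : M2)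
    (hI : Commute I g) (hJ : g * J = J * g) : IsScalar2 g := by
  obtain ⟨x, y, rfl⟩ := (commute_iff I (q.notScalar h2) g).1 hI
  have h : y • (I * J) = y • (J * I) := by
    simpa [add_mul, mul_add] using hJ
  rw [q.ji, smul_neg, eq_neg_iff_add_eq_zero, ← add_smul, smul_eq_zero] at h
  have hy : y = 0 := by
    rcases h with h | h
    · exact (mul_eq_zero.1 (by linear_combination h : (2 : F) * y = 0)).resolve_left h2
    · exfalso
      have := congrArg (fun Z : M2 => I * Z) h
      simp [← mul_assoc, q.ii] at this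
      have hj := q.jj
      simp [this] at hj
  rw [isScalar2_iff]
  exact ⟨x, by simp [hy]⟩

theorem QPair.swap {I J : M2} (q : QPair I J) : QPair J I :=
  ⟨q.jj, q.ii, by rw [q.ji, neg_neg]⟩

/-- `1 + I + J + IJ` -/
def cyc (I J : M2) : M2 := 1 + I + J + I * J

theorem QPair.cyc_props {I J : M2} (q : QPair I J) (h2 : (2 : F) ≠ 0) :
    cyc I J * I = J * cyc I J ∧ cyc I J * J = (I * J) * cyc I J ∧
      ¬ IsScalar2 (cyc I J) ∧ (cyc I J).trace = 2 ∧ (cyc I J).det = 4 := by
  have e1 : I * J * I = J := by rw [mul_assoc, q.ji, mul_neg, ← mul_assoc, q.ii, neg_one_mul, neg_neg]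
  have e2 : I * J * J = -I := by rw [mul_assoc, q.jj, mul_neg_one]
  have e3 : J * (I * J) = I := by rw [← mul_assoc, q.ji, neg_mul, e2, neg_neg]
  have e4 : I * J * (I * J) = -1 := by rw [← mul_assoc, e1, q.jj]
  have e5 : I * (I * J) = -J := by rw [← mul_assoc, q.ii, neg_one_mul]
  have a1 : cyc I J * I = I + -1 + -(I * J) + J := by
    simp only [cyc, add_mul, one_mul, q.ii, q.ji, e1]
  have a2 : J * cyc I J = J + -(I * J) + -1 + I := by
    simp only [cyc, mul_add, mul_one, q.jj, q.ji, e3]
  have hM1 : cyc I J * I = J * cyc I J := by rw [a1, a2]; abel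
  have hM2 : cyc I J * J = (I * J) * cyc I J := by
    simp only [cyc, add_mul, mul_add, one_mul, mul_one, q.jj, e1, e2, e4]
    abel
  have hns : ¬ IsScalar2 (cyc I J) := by
    intro h
    obtain ⟨c, hc⟩ := (isScalar2_iff _).1 h
    rw [hc] at hM1
    simp only [Matrix.smul_mul, Matrix.mul_smul, one_mul, mul_one] at hM1
    rcases eq_or_ne c 0 with rfl | hc0
    · -- `cyc = 0` forces `IJ` to commute with `I`
      rw [zero_smul] at hc
      have h' : I * cyc I J = cyc I J * I := by rw [hc, mul_zero, zero_mul]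
      rw [a1] at h'
      simp only [cyc, mul_add, mul_one, q.ii, e5] at h'
      have h'' : (2 : F) • (I * J - J) = 0 := by
        rw [two_smul]
        rw [← sub_eq_zero] at h'
        convert h' using 1
        abel
      rw [smul_eq_zero, or_iff_right h2, sub_eq_zero] at h''
      have h3 := e2
      rw [h'', q.jj, neg_inj] at h3
      have h4 := q.ii
      rw [← h3, one_mul, eq_neg_iff_add_eq_zero, ← two_smul F, smul_eq_zero, or_iff_right h2] at h4
      exact one_ne_zero h4
    · have hIJ : I = J := smul_right_injective _ hc0 hM1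
      have h4 := q.ji
      rw [← hIJ, q.ii, neg_neg, eq_comm, eq_neg_iff_add_eq_zero, ← two_smul F, smul_eq_zero, or_iff_right h2] at h4
      exact one_ne_zero h4
  have hsq : cyc I J * cyc I J = (2 : F) • cyc I J - (4 : F) • (1 : M2) := by
    have h4 : (4 : F) • (1 : M2) = 1 + 1 + 1 + 1 := by
      rw [show (4 : F) = 1 + 1 + 1 + 1 by norm_num]; simp [add_smul]
    rw [two_smul, h4]
    simp only [cyc, add_mul, mul_add, one_mul, mul_one, q.ii, q.jj, q.ji, e1, e2, e3, e4, e5]
    abel
  exact ⟨hM1, hM2, hns, inv_of_sq hns hsq⟩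

/-- a quaternion subgroup has standard generators -/
theorem exists_gens (h2 : (2 : F) ≠ 0) (R : Subgroup (GL (Fin 2) F))
    (hR : Nonempty (↥R ≃* QuaternionGroup 2)) :
    Nat.card R = 8 ∧ ∃ a b : GL (Fin 2) F, a ∈ R ∧ b ∈ R ∧
      QPair (a : M2) (b : M2) ∧ ∀ u ∈ R, ∃ k : ℕ, u = a ^ k ∨ u = b * a ^ k := by
  obtain ⟨e⟩ := hR
  refine ⟨?_, ?_⟩
  · rw [Nat.card_congr e.toEquiv, Nat.card_eq_fintype_card, QuaternionGroup.card]
  set A := e.symm (QuaternionGroup.a 1) with hA
  set B := e.symm (QuaternionGroup.xa 0) with hB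
  refine ⟨A, B, A.2, B.2, ?_, ?_⟩
  swap
  · intro u hu
    obtain ⟨v, rfl⟩ : ∃ v : R, (v : GL (Fin 2) F) = u := ⟨⟨u, hu⟩, rfl⟩
    obtain ⟨w, rfl⟩ := e.symm.surjective v
    rcases w with i | i
    · refine ⟨i.val, Or.inl ?_⟩
      rw [← Subgroup.coe_pow, hA, ← map_pow, QuaternionGroup.a_one_pow, ZMod.natCast_zmod_val]
    · refine ⟨i.val, Or.inr ?_⟩
      rw [← Subgroup.coe_pow, ← Subgroup.coe_mul, hA, hB, ← map_pow, ← map_mul,
        QuaternionGroup.a_one_pow, QuaternionGroup.xa_mul_a, ZMod.natCast_zmod_val, zero_add]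
  have hz : B * B = A * A := by
    rw [hA, hB, ← map_mul, ← map_mul]; congr 1
  have hz1 : A * A ≠ 1 := by
    intro h
    rw [hA, ← map_mul, MulEquiv.map_eq_one_iff] at h
    revert h; decide
  have hz4 : A * A * (A * A) = 1 := by
    rw [hA, ← map_mul, ← map_mul, MulEquiv.map_eq_one_iff]; decide
  have hnc : A * B ≠ B * A := by
    intro h
    rw [hA, hB, ← map_mul, ← map_mul, e.symm.injective.eq_iff] at h
    revert h; decide
  have hba : B * A = A * A * (A * B) := by
    rw [hA, hB, ← map_mul, ← map_mul, ← map_mul, ← map_mul]; congr 1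
  set I := ((A : GL (Fin 2) F) : M2)
  set J := ((B : GL (Fin 2) F) : M2)
  have cv : ∀ u v : R, ((↑(u * v) : GL (Fin 2) F) : M2) = ((u : GL (Fin 2) F) : M2) * ((v : GL (Fin 2) F) : M2) :=
    fun u v => rfl
  have cinj : ∀ u v : R, ((u : GL (Fin 2) F) : M2) = ((v : GL (Fin 2) F) : M2) → u = v :=
    fun u v h => Subtype.ext (Units.ext h)
  have hJJ : J * J = I * I := by
    have := congrArg (fun u : R => ((u : GL (Fin 2) F) : M2)) hz
    simpa [cv] using this
  have hs : IsScalar2 (I * I) := by
    by_contra hs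
    obtain ⟨x, y, hx⟩ := (commute_iff _ hs I).1 (by unfold Commute SemiconjBy; rw [mul_assoc])
    obtain ⟨x', y', hy⟩ := (commute_iff _ hs J).1 (by unfold Commute SemiconjBy; rw [← hJJ, mul_assoc])
    have hcom : I * J = J * I := by
      have : Commute I (x' • (1 : M2) + y' • (I * I)) :=
        ((Commute.one_right I).smul_right x').add_right (((Commute.refl I).mul_right (Commute.refl I)).smul_right y')
      rw [hy]; exact this.eq
    exact hnc (cinj _ _ (by rw [cv, cv]; exact hcom))
  obtain ⟨c, hc⟩ := (isScalar2_iff _).1 hs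
  have hc2 : c * c = 1 := by
    have := congrArg (fun u : R => ((u : GL (Fin 2) F) : M2)) hz4
    simp only [cv] at this
    rw [show ((A : GL (Fin 2) F) : M2) = I from rfl, hc] at this
    have := congrFun (congrFun this 0) 0
    simpa [Matrix.mul_apply] using this
  have hcm : c = -1 := by
    rcases mul_self_eq_one_iff.1 hc2 with h | h
    · exfalso
      apply hz1
      refine cinj _ _ ?_
      rw [cv]
      show I * I = _
      rw [hc, h, one_smul]
      rfl
    · exact h
  have hII : I * I = -1 := by rw [hc, hcm]; simp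
  refine ⟨hII, hJJ.trans hII, ?_⟩
  have := congrArg (fun u : R => ((u : GL (Fin 2) F) : M2)) hba
  simp only [cv] at this
  rw [show ((A : GL (Fin 2) F) : M2) = I from rfl, show ((B : GL (Fin 2) F) : M2) = J from rfl, hII] at this
  simpa using this

/-- an element of prime order `r ≥ 5` modulo scalars does not normalize a quaternion group -/
theorem no_large_prime [Finite F] (h2 : (2 : F) ≠ 0) (R : Subgroup (GL (Fin 2) F))
    (hR : Nonempty (↥R ≃* QuaternionGroup 2)) {r : ℕ} [hr : Fact r.Prime] (h5 : 5 ≤ r)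
    (g : GL (Fin 2) F) (hg : g ∈ Subgroup.normalizer (R : Set (GL (Fin 2) F))) (z : F)
    (hgz : ((g ^ r : GL (Fin 2) F) : M2) = z • (1 : M2)) : IsScalar2 (g : M2) := by
  classical
  obtain ⟨h8, a, b, ha, hb, q, -⟩ := exists_gens h2 R hR
  let σ : Equiv.Perm R :=
    { toFun := fun u => ⟨g * u * g⁻¹, (Subgroup.mem_normalizer_iff.1 hg u).1 u.2⟩
      invFun := fun u => ⟨g⁻¹ * u * g, by
        have := (Subgroup.mem_normalizer_iff.1 (inv_mem hg) (u : GL (Fin 2) F)).1 u.2
        rwa [inv_inv] at this⟩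
      left_inv := fun u => by ext1; simp [mul_assoc]
      right_inv := fun u => by ext1; simp [mul_assoc] }
  have hpow : ∀ (k : ℕ) (u : R), ((σ ^ k) u : GL (Fin 2) F) = g ^ k * u * (g ^ k)⁻¹ := by
    intro k
    induction k with
    | zero => intro u; simp
    | succ k ih =>
      intro u
      rw [pow_succ', Equiv.Perm.mul_apply]
      show g * _ * g⁻¹ = _
      rw [ih, pow_succ']; group
  have hσr : σ ^ r = 1 := by
    ext u : 2
    rw [hpow, Equiv.Perm.one_apply]
    have : g ^ r * u = u * g ^ r := Units.ext (by rw [Units.val_mul, Units.val_mul, hgz]; simp)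
    rw [this, mul_assoc, mul_inv_cancel, mul_one]
  by_contra hns
  have hσ1 : σ ≠ 1 := by
    intro h
    have fix : ∀ u : R, g * (u : GL (Fin 2) F) = u * g := by
      intro u
      have := congrArg (fun s : Equiv.Perm R => ((s u : R) : GL (Fin 2) F)) h
      simp only [Equiv.Perm.one_apply] at this
      exact mul_inv_eq_iff_eq_mul.1 this
    have hI := congrArg Units.val (fix ⟨a, ha⟩)
    have hJ := congrArg Units.val (fix ⟨b, hb⟩)
    simp only [Units.val_mul] at hI hJ
    exact hns (q.center h2 _ hI.symm hJ)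
  have hord : orderOf σ = r := orderOf_eq_prime hσr hσ1
  haveI : Fintype R := Fintype.ofFinite R
  obtain ⟨n, hn⟩ := Equiv.Perm.cycleType_prime_order (hord.symm ▸ hr.out)
  have hsupp : σ.support.card = (n + 1) * r := by
    rw [← Equiv.Perm.sum_cycleType, hn, Multiset.sum_replicate, smul_eq_mul, hord]
  let C : Subgroup R := (Subgroup.centralizer ({g} : Set (GL (Fin 2) F))).subgroupOf R
  have hC : ∀ u : R, u ∈ C ↔ σ u = u := by
    intro u
    rw [Subgroup.mem_subgroupOf, Subgroup.mem_centralizer_singleton_iff, ← Subtype.coe_inj]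
    show _ ↔ g * u * g⁻¹ = u
    rw [mul_inv_eq_iff_eq_mul, eq_comm]
  have hcard : Nat.card C + σ.support.card = 8 := by
    rw [← h8, Nat.card_eq_fintype_card (α := R), Nat.card_eq_fintype_card (α := C),
      ← Finset.card_add_card_compl σ.support, add_comm]
    congr 1
    rw [Fintype.card_subtype]
    congr 1
    ext u
    simp [hC]
  have hdvd : Nat.card C ∣ 8 := h8 ▸ C.card_subgroup_dvd_card
  have hC1 : Nat.card C ≠ 1 := by
    rw [Ne, Subgroup.card_eq_one]
    intro hbot
    have hm : (⟨a * a, mul_mem ha ha⟩ : R) ∈ C := by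
      rw [Subgroup.mem_subgroupOf, Subgroup.mem_centralizer_singleton_iff]
      apply Units.ext
      simp [Units.val_mul, q.ii]
    rw [hbot, Subgroup.mem_bot, Subtype.ext_iff] at hm
    have := congrArg Units.val hm
    simp [q.ii] at this
    have h00 := congrFun (congrFun this 0) 0
    simp at h00
    exact h2 (by linear_combination -h00)
  have hle : Nat.card C ≤ 8 := Nat.le_of_dvd (by norm_num) hdvd
  have hpos : 0 < Nat.card C := Nat.card_pos
  have h8' : (n + 1) * r ≤ 6 := by omega
  have hn0 : n = 0 := by nlinarith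
  subst hn0
  have hr6 : r = 5 ∨ r = 6 := by omega
  rcases hr6 with rfl | rfl
  · have : Nat.card C = 3 := by omega
    rw [this] at hdvd; norm_num at hdvd
  · exact absurd hr.out (by norm_num)

/-- conjugate into a given element by determinant one -/
theorem exists_conj [Fintype F] (hodd : Odd (Fintype.card F))
    (x y : GL (Fin 2) F) (hx : x ∈ Cfsg.Geo.specialLinear (Fin 2) F) (hxs : ¬ IsScalar2 (x : M2))
    (hy : (y : M2).det = 1) (hys : ¬ IsScalar2 (y : M2))
    (ht : (x : M2).trace = (y : M2).trace) (h4 : (x : M2).trace ^ 2 ≠ 4) :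
    ∃ g ∈ Cfsg.Geo.specialLinear (Fin 2) F, g⁻¹ * x * g = y := by
  have hxd : (x : M2).det = 1 := by
    rw [← GeneralLinearGroup.val_det_apply, (MonoidHom.mem_ker).1 hx, Units.val_one]
  let X : SL(2, F) := ⟨(x : M2), hxd⟩
  let Y : SL(2, F) := ⟨(y : M2), hy⟩
  obtain ⟨c, hc⟩ := isConj_iff.1 (sl_isConj_of_trace X Y hxs hys ht
    fun δ _ => values_of_odd hodd _ h4 δ)
  have hX : Matrix.SpecialLinearGroup.toGL X = x := Units.ext rfl
  have hY : Matrix.SpecialLinearGroup.toGL Y = y := Units.ext rfl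
  refine ⟨Matrix.SpecialLinearGroup.toGL c⁻¹, ?_, ?_⟩
  · rw [Cfsg.Geo.specialLinear, MonoidHom.mem_ker]
    exact Units.ext (c⁻¹).2
  · rw [← hX, ← hY, ← hc, map_mul, map_mul, map_inv, inv_inv]

end Cfsg.Agent.Lib.Two.QN
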